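import Cfsg.Agent.DixonBound.Rational
import Cfsg.Agent.Chars.Induced.Extension
import Cfsg.Agent.Chars.Induced.Clifford
import Cfsg.Agent.Glauberman.Cyclic
import Cfsg.Agent.Chars.GaloisHom.Basic

/-!
# A rational character of a `p`-group acting on a `p'`-group inside a linear group

If `L = K R` has a faithful character of degree `n`, the canonical extensions of the constituents
on `K`, induced to `L` and restricted to `R`, add up to a rational-valued character of degree at
most `n` whose kernel centralises `K`.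
-/

set_option autoImplicit false
set_option linter.style.haveILetI false

namespace CfsgLib.DixonBound

open Cfsg CfsgLib.Chars CfsgLib.Chars.Induced

universe u

variable {L : Type u} [Group L] [Fintype L] {K : Subgroup L} [K.Normal]

open scoped Classical in
theorem exists_induced_extension (θ : IrrCharacter K) (hcop : (Nat.card K).Coprime K.index) :
    ∃ ψ : L → ℂ, IsCharacter L ψ ∧
      ψ 1 = ((inertia K (θ : K → ℂ)).index : ℂ) * (θ : K → ℂ) 1 ∧
      (∀ k : K, ψ k = (Nat.card (inertia K (θ : K → ℂ)) : ℂ)⁻¹ *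
        ∑ x : L, (conjIrr x θ : K → ℂ) k) ∧
      ∀ σ : ℂ →+* ℂ, (∀ z : ℂ, z ^ Nat.card K = 1 → σ z = z) → ∀ g, σ (ψ g) = ψ g := by
  classical
  set I := inertia K (θ : K → ℂ) with hI
  have hKI : K ≤ I := le_inertia (isClassFunction_coe θ)
  let e : K.subgroupOf I ≃* K := Subgroup.subgroupOfEquivOfLe hKI
  let θ' : IrrCharacter (K.subgroupOf I) :=
    ⟨fun a => (θ : K → ℂ) (e a), isIrrCharacter_comp θ.2 e.toMonoidHom e.surjective⟩
  have hinv : ∀ x : I, conjFun (K.subgroupOf I) x (θ' : K.subgroupOf I → ℂ) = θ' := by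
    intro x
    funext a
    show _ = (θ : K → ℂ) (e a)
    have hx := congrFun (mem_inertia.1 x.2) (e a)
    rw [conjFun_apply] at hx ⊢
    exact (congrArg (θ : K → ℂ) (Subtype.ext rfl)).trans hx
  have hcardK : Nat.card (K.subgroupOf I) = Nat.card K := Nat.card_congr e.toEquiv
  have hidx : (K.subgroupOf I).index ∣ K.index := Subgroup.relIndex_dvd_index_of_normal K I
  have hc : (K.subgroupOf I).index.Coprime (Nat.card K) :=
    Nat.Coprime.coprime_dvd_left hidx hcop.symm
  have hd : (θ' : K.subgroupOf I → ℂ) 1 = (charDegree (θ' : K.subgroupOf I → ℂ) : ℂ) :=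
    (coe_charDegree θ').symm
  have hcd : (K.subgroupOf I).index.Coprime
      (detOrder (θ' : K.subgroupOf I → ℂ) * charDegree (θ' : K.subgroupOf I → ℂ)) :=
    Nat.Coprime.mul_right
      (Nat.Coprime.coprime_dvd_right (hcardK ▸ detOrder_dvd_card (isCharacter_coe θ')) hc)
      (Nat.Coprime.coprime_dvd_right (hcardK ▸ charDegree_dvd_card θ') hc)
  obtain ⟨χ, hres, hdo, huniq⟩ := exists_canonical_extension θ' hinv hd hcd
  have hresK : ∀ k : K, (χ : I → ℂ) ⟨k, hKI k.2⟩ = (θ : K → ℂ) k := fun k => by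
    have h := hres (e.symm k)
    simp only [θ', MulEquiv.apply_symm_apply] at h
    exact h
  refine ⟨indFun I (χ : I → ℂ), isCharacter_indFun I (isCharacter_coe χ), ?_, fun k => ?_,
    fun σ hσ g => ?_⟩
  · rw [indFun_one_apply]
    congr 1
    exact hresK 1
  · simp only [indFun]
    congr 1
    refine Finset.sum_congr rfl fun x _ => ?_
    have hx : x⁻¹ * (k : L) * x ∈ K := by simpa using ‹K.Normal›.conj_mem k k.2 x⁻¹
    rw [conjIrr_coe, conjFun_apply, extendByZero_mem _ (hKI hx)]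
    exact hresK ⟨_, hx⟩
  · let χσ : IrrCharacter I := ⟨fun x => σ ((χ : I → ℂ) x), isIrrCharacter_ringHom χ.2 σ⟩
    have hfix : χσ = χ := by
      refine huniq χσ (fun a => ?_) ?_
      · show σ ((χ : I → ℂ) a) = _
        rw [hres]
        obtain ⟨s, h1, -, h3⟩ := exists_roots (isCharacter_coe θ') a
        have e1 := h3 1
        simp only [pow_one, Multiset.map_id'] at e1
        rw [e1, map_multiset_sum]
        congr 1
        refine (Multiset.map_congr rfl fun z hz => ?_).trans (Multiset.map_id' s)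
        obtain ⟨c, hc'⟩ : orderOf a ∣ Nat.card K := hcardK ▸ orderOf_dvd_natCard a
        exact hσ z (by rw [hc', pow_mul, h1 z hz, one_pow])
      · refine Nat.Coprime.coprime_dvd_right ?_ hcd.coprime_mul_right_right
        rw [← hdo]
        refine orderOf_dvd_of_pow_eq_one (funext fun x => ?_)
        rw [Pi.pow_apply, Pi.one_apply, Glauberman.detChar_ringHom χ σ, ← map_pow,
          ← Pi.pow_apply (detChar (χ : I → ℂ))]
        have h := pow_orderOf_eq_one (detChar (χ : I → ℂ))
        rw [show detOrder (χ : I → ℂ) = orderOf (detChar (χ : I → ℂ)) from rfl, h, Pi.one_apply,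
          map_one]
    simp only [indFun, map_mul, map_inv₀, map_natCast, map_sum]
    congr 1
    refine Finset.sum_congr rfl fun x _ => ?_
    by_cases hx : x⁻¹ * g * x ∈ I
    · rw [extendByZero_mem _ hx]
      exact congrFun (congrArg Subtype.val hfix) _
    · rw [extendByZero_notMem _ hx, map_zero]

open scoped Classical in
theorem exists_rational_char {p : ℕ} (hp : p.Prime) (hcop : (Nat.card K).Coprime K.index)
    {R : Subgroup L} (hR : IsPGroup p R) (hKp : ¬ p ∣ Nat.card K)
    (s : Finset (IrrCharacter K)) (hs : ∀ (x : L), ∀ θ ∈ s, conjIrr x θ ∈ s) :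
    ∃ Φ : R → ℂ, IsCharacter R Φ ∧ (∀ (σ : ℂ ≃+* ℂ) (x : R), σ (Φ x) = Φ x) ∧
      charDegree Φ ≤ ∑ θ ∈ s, charDegree (θ : K → ℂ) ∧
      ∀ x : R, Φ x = Φ 1 → ∀ θ ∈ s, ∀ k c : K, (c : L) = x * k * (x : L)⁻¹ * (k : L)⁻¹ →
        (θ : K → ℂ) c = (θ : K → ℂ) 1 := by
  classical
  haveI := Fact.mk hp
  induction s using Finset.strongInduction with
  | _ s ih =>
  rcases Finset.eq_empty_or_nonempty s with rfl | ⟨η, hη⟩
  · exact ⟨0, isCharacter_zero, by simp, by
      rw [charDegree_eq_of_map_one (n := 0) (by simp)]; simp, by simp⟩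
  set O := (Set.finite_range fun x : L => conjIrr x η).toFinset with hO
  have hmemO : ∀ θ, θ ∈ O ↔ θ ∈ conjOrbit η := fun θ => Set.Finite.mem_toFinset _
  have hOs : O ⊆ s := fun θ hθ => by
    obtain ⟨x, rfl⟩ := (hmemO θ).1 hθ
    exact hs x η hη
  obtain ⟨Φ', hΦ', hrat', hdeg', hker'⟩ := ih (s \ O)
    (Finset.sdiff_ssubset hOs ⟨η, (hmemO η).2 (self_mem_conjOrbit η)⟩) (fun x θ hθ => by
      rw [Finset.mem_sdiff] at hθ ⊢
      refine ⟨hs x θ hθ.1, fun h => hθ.2 ((hmemO θ).2 ?_)⟩
      have h1 := conjIrr_mem_conjOrbit x⁻¹ ((hmemO _).1 h)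
      rwa [← conjIrr_mul, inv_mul_cancel, conjIrr_one] at h1)
  obtain ⟨ψ, hψ, hψ1, hψK, hψσ⟩ := exists_induced_extension η hcop
  have hψR : IsCharacter R fun x : R => ψ x := isCharacter_restrict hψ R
  refine ⟨(fun x : R => ψ x) + Φ', isCharacter_add hψR hΦ', fun σ x => ?_, ?_, ?_⟩
  · -- rationality
    rw [Pi.add_apply, map_add, hrat']
    congr 1
    obtain ⟨N, hN⟩ := IsPGroup.iff_card.1 hR
    set m := Nat.card K
    have hm : 0 < m := Nat.card_pos
    set M := p ^ N
    have hM : 0 < M := pow_pos hp.pos N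
    haveI : NeZero M := ⟨hM.ne'⟩
    have hζ := Complex.isPrimitiveRoot_exp M hM.ne'
    set ζ := Complex.exp (2 * Real.pi * Complex.I / M)
    obtain ⟨k, -, hk⟩ := hζ.eq_pow_of_pow_eq_one (ξ := σ ζ) (by
      rw [← map_pow, hζ.pow_eq_one, map_one])
    have hkM : k.Coprime M := by
      refine (hζ.pow_iff_coprime hM k).1 ?_
      rw [hk]
      exact hζ.map_of_injective σ.injective
    have hMm : M.Coprime m := (hp.coprime_iff_not_dvd.2 hKp).pow_left N
    obtain ⟨k', hk'M, hk'm⟩ := Nat.chineseRemainder hMm k 1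
    obtain ⟨τ, hτ⟩ := GaloisHom.exists_ringHom_pow (Nat.mul_pos hM hm) (k := k')
      (Nat.Coprime.mul_right ((Nat.ModEq.gcd_eq hk'M).trans hkM)
        ((Nat.ModEq.gcd_eq hk'm).trans (Nat.gcd_one_left m)))
    have h1 : ∀ z : ℂ, z ^ m = 1 → τ z = z := fun z hz => by
      rw [hτ z (by rw [mul_comm, pow_mul, hz, one_pow])]
      rw [pow_eq_pow_mod k' hz, show k' % m = 1 % m from hk'm, ← pow_eq_pow_mod 1 hz, pow_one]
    have h2 : ∀ z : ℂ, z ^ M = 1 → τ z = σ z := fun z hz => by
      obtain ⟨i, -, rfl⟩ := hζ.eq_pow_of_pow_eq_one hz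
      have hzM := hζ.pow_eq_one
      rw [map_pow, map_pow, ← hk, hτ ζ (by rw [pow_mul, hzM, one_pow])]
      congr 1
      rw [pow_eq_pow_mod k' hzM, show k' % M = k % M from hk'M, ← pow_eq_pow_mod k hzM]
    obtain ⟨t, ht1, -, ht3⟩ := exists_roots hψR x
    have e1 := ht3 1
    simp only [pow_one, Multiset.map_id'] at e1
    have hx : τ (ψ x) = σ (ψ x) := by
      rw [e1, map_multiset_sum, map_multiset_sum]
      refine congrArg Multiset.sum (Multiset.map_congr rfl fun z hz => h2 z ?_)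
      obtain ⟨c, hc⟩ : orderOf x ∣ M := hN ▸ orderOf_dvd_natCard x
      rw [hc, pow_mul, ht1 z hz, one_pow]
    exact hx.symm.trans (hψσ τ h1 x)
  · -- degree
    obtain ⟨d', hd'⟩ := exists_natCast_map_one hΦ'
    rw [charDegree_eq_of_map_one hd'] at hdeg'
    rw [← Finset.union_sdiff_of_subset hOs, Finset.sum_union Finset.disjoint_sdiff,
      charDegree_eq_of_map_one (n := (inertia K (η : K → ℂ)).index * charDegree (η : K → ℂ) + d')
        (by
          rw [Pi.add_apply]
          push_cast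
          rw [hd', coe_charDegree, hψ1])]
    refine Nat.add_le_add (le_of_eq ?_) hdeg'
    rw [Finset.sum_congr rfl (g := fun _ => charDegree (η : K → ℂ)) (fun θ hθ => by
        obtain ⟨x, rfl⟩ := (hmemO θ).1 hθ
        exact charDegree_eq_of_map_one (by simp [conjFun, ← coe_charDegree η])),
      Finset.sum_const, smul_eq_mul, ← card_conjOrbit η, conjOrbit, Nat.card_coe_set_eq,
      Set.ncard_eq_toFinset_card _ (Set.finite_range _)]
  · -- kernel
    intro x hx θ hθ k c hc
    obtain ⟨hxψ, hxΦ⟩ := eq_of_eq_add hψR hΦ' hx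
    by_cases hθO : θ ∈ O
    · have hxker : (x : L) ∈ charKer ψ :=
        (mem_charKer_iff hψ).2 (by simpa using hxψ)
      haveI := charKer_normal (CfsgLib.Chars.isClassFunction_of_isCharacter hψ)
      have hcker : (c : L) ∈ charKer ψ := by
        rw [hc, mul_assoc, mul_assoc, ← mul_assoc (k : L)]
        exact mul_mem hxker (‹(charKer ψ).Normal›.conj_mem _ (inv_mem hxker) k)
      have h := map_eq_map_one_of_mem_charKer hcker
      rw [hψK, ← OneMemClass.coe_one K, hψK,
        mul_right_inj' (inv_ne_zero (Nat.cast_ne_zero.2 Nat.card_pos.ne'))] at h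
      obtain ⟨y, rfl⟩ := (hmemO θ).1 hθO
      exact eq_of_eq_sum Finset.univ (f := fun x : L => (conjIrr x η : K → ℂ))
        (fun x _ => isCharacter_coe (conjIrr x η)) h y (Finset.mem_univ y)
    · exact hker' x hxΦ θ (Finset.mem_sdiff.2 ⟨hθ, hθO⟩) k c hc

/-- A `p`-group normalising a `p'`-group inside a group with a faithful character of degree `n`:
its centraliser in it has index at most `p ^ S(n)`. -/
theorem index_centralizer_le {p : ℕ} (hp : p.Prime) (hKp : ¬ p ∣ Nat.card K) {R : Subgroup L}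
    (hR : IsPGroup p R) (hKR : K ⊔ R = ⊤) {χ : L → ℂ} (hχ : IsCharacter L χ)
    (hfaith : ∀ g : L, χ g = χ 1 → g = 1) {n : ℕ} (hn : χ 1 = n) :
    ((Subgroup.centralizer (K : Set L)).subgroupOf R).index ≤ p ^ minkowskiSum p n := by
  classical
  haveI := Fact.mk hp
  have hcop : (Nat.card K).Coprime K.index := by
    obtain ⟨N, hN⟩ := IsPGroup.iff_card.1 hR
    have hi : K.index ∣ p ^ N := by
      rw [← hN, ← Subgroup.relIndex_top_right, ← hKR, Subgroup.relIndex_sup_left]
      exact Subgroup.relIndex_dvd_card K R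
    exact Nat.Coprime.coprime_dvd_right hi ((hp.coprime_iff_not_dvd.2 hKp).pow_left N).symm
  have hres := isCharacter_restrict hχ K
  obtain ⟨s, hmem, hsum⟩ := exists_eq_sum_mult hres
  have hcl := CfsgLib.Chars.isClassFunction_of_isCharacter hχ
  obtain ⟨Φ, hΦ, hrat, hdeg, hker⟩ := exists_rational_char hp hcop hR hKp s (fun x θ hθ => by
    rw [hmem] at hθ ⊢
    rwa [mult_restrict_conjIrr hcl])
  have hdn : ∑ θ ∈ s, charDegree (θ : K → ℂ) ≤ n := by
    have h1 : ((n : ℕ) : ℂ) =
        ((∑ θ ∈ s, mult (fun k : K => χ k) θ * charDegree (θ : K → ℂ) : ℕ) : ℂ) := by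
      have h := congrFun hsum 1
      simp only [OneMemClass.coe_one, hn] at h
      rw [h]
      push_cast
      simp [Finset.sum_apply, coe_charDegree]
    rw [Nat.cast_inj.1 h1]
    exact Finset.sum_le_sum fun θ hθ =>
      Nat.le_mul_of_pos_left _ (Nat.pos_of_ne_zero ((hmem θ).1 hθ))
  refine le_trans (Nat.le_of_dvd (Nat.pos_of_ne_zero Subgroup.index_ne_zero_of_finite)
    (Subgroup.index_dvd_of_le ?_)) (index_charKer_le_of_rational hp hR hΦ hrat (hdeg.trans hdn))
  intro x hx
  rw [Subgroup.mem_subgroupOf, Subgroup.mem_centralizer_iff]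
  intro k hk
  have hcK : (x : L) * k * (x : L)⁻¹ * k⁻¹ ∈ K :=
    mul_mem (‹K.Normal›.conj_mem k hk _) (inv_mem hk)
  have hθ := hker x (map_eq_map_one_of_mem_charKer hx)
  have h1 : χ ((x : L) * k * (x : L)⁻¹ * k⁻¹) = χ 1 := by
    have ha := congrFun hsum ⟨_, hcK⟩
    have hb := congrFun hsum 1
    simp only [Finset.sum_apply, Pi.smul_apply, OneMemClass.coe_one] at ha hb
    rw [ha, hb]
    exact Finset.sum_congr rfl fun θ hθs => by
      rw [hθ θ hθs ⟨k, hk⟩ ⟨_, hcK⟩ rfl]
  exact (mul_inv_eq_iff_eq_mul.1 (mul_inv_eq_one.1 (hfaith _ h1))).symm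

end CfsgLib.DixonBound
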