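import Cfsg.Agent.PGroupFieldBound.Basic
import Cfsg.Agent.Chars.Induced.Mult
import Cfsg.Agent.Chars.Basic.ClassSum
import Cfsg.Agent.Chars.Basic.Values
import Cfsg.Agent.Chars.Basic.Orthogonality
import Cfsg.Agent.Chars.Basic.Columns

/-!
# The Schur-Minkowski bound: `p`-groups with a rational-valued character of given degree
-/

set_option autoImplicit false
set_option linter.style.haveILetI false

namespace CfsgLib.DixonBound

open Cfsg CfsgLib.Chars CfsgLib.Chars.Induced

universe u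

/-- The sum `∑ i, ⌊n / ((p - 1) p ^ i)⌋`. -/
def minkowskiSum (p n : ℕ) : ℕ := ∑ i ∈ Finset.range (n + 1), n / ((p - 1) * p ^ i)

theorem minkowskiSum_add_le (p a b : ℕ) :
    minkowskiSum p a + minkowskiSum p b ≤ minkowskiSum p (a + b) := by
  have ha : minkowskiSum p a ≤ ∑ i ∈ Finset.range (a + b + 1), a / ((p - 1) * p ^ i) :=
    Finset.sum_le_sum_of_subset (Finset.range_subset_range.2 (by omega))
  have hb : minkowskiSum p b ≤ ∑ i ∈ Finset.range (a + b + 1), b / ((p - 1) * p ^ i) :=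
    Finset.sum_le_sum_of_subset (Finset.range_subset_range.2 (by omega))
  refine (Nat.add_le_add ha hb).trans ?_
  rw [← Finset.sum_add_distrib]
  exact Finset.sum_le_sum fun i _ => Nat.div_add_div_le_add_div

theorem minkowskiSum_mono (p : ℕ) {a b : ℕ} (h : a ≤ b) : minkowskiSum p a ≤ minkowskiSum p b := by
  obtain ⟨c, rfl⟩ := Nat.exists_eq_add_of_le h
  exact (Nat.le_add_right _ _).trans (minkowskiSum_add_le p a c)

theorem geom_le_minkowskiSum {p : ℕ} (hp : 2 ≤ p) (e : ℕ) :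
    ∑ i ∈ Finset.range (e + 1), p ^ i ≤ minkowskiSum p ((p - 1) * p ^ e) := by
  have hd : e ≤ (p - 1) * p ^ e :=
    (Nat.lt_pow_self hp).le.trans (Nat.le_mul_of_pos_left _ (by omega))
  refine le_trans (le_of_eq ?_) (Finset.sum_le_sum_of_subset
    (Finset.range_subset_range.2 (show e + 1 ≤ (p - 1) * p ^ e + 1 by omega)))
  rw [← Finset.sum_range_reflect]
  refine Finset.sum_congr rfl fun i hi => ?_
  rw [Finset.mem_range] at hi
  have h : p ^ e = p ^ (e - i) * p ^ i := by rw [← pow_add, Nat.sub_add_cancel (by omega)]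
  rw [Nat.mul_div_mul_left _ _ (by omega : 0 < p - 1), h,
    Nat.mul_div_cancel _ (pow_pos (by omega) i), show e + 1 - 1 - i = e - i by omega]

theorem index_le_of_step {p : ℕ} (hp : 2 ≤ p) {a t j : ℕ}
    (h : (p - 1) * a ≤ (p ^ j - 1) + (p - 1) * (t + 1) * p ^ j) :
    a ≤ minkowskiSum p ((p - 1) * p ^ t * p ^ j) := by
  rw [mul_assoc, ← pow_add]
  refine le_trans ?_ (geom_le_minkowskiSum hp _)
  obtain ⟨q, rfl⟩ : ∃ q, p = q + 1 := ⟨p - 1, by omega⟩
  simp only [Nat.add_sub_cancel] at h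
  refine Nat.le_of_mul_le_mul_left ?_ (show 0 < q by omega)
  have hg : ∀ m, q * ∑ i ∈ Finset.range m, (q + 1) ^ i + 1 = (q + 1) ^ m := by
    intro m
    induction m with
    | zero => simp
    | succ m ih => rw [Finset.sum_range_succ, pow_succ, mul_add, add_right_comm, ih]; ring
  have hb : ∀ m, q * m + 1 ≤ (q + 1) ^ m := by
    intro m
    induction m with
    | zero => simp
    | succ m ih =>
      rw [pow_succ]
      calc q * (m + 1) + 1 ≤ (q * m + 1) * (q + 1) := by
            have h0 := Nat.zero_le (q * m * q)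
            linarith
        _ ≤ _ := Nat.mul_le_mul_right _ ih
  have hj : 1 ≤ (q + 1) ^ j := Nat.one_le_pow _ _ (by omega)
  have h1 : (q * (t + 1) + 1) * (q + 1) ^ j ≤ (q + 1) ^ (t + j + 1) := by
    rw [show t + j + 1 = (t + 1) + j by omega, pow_add]
    exact Nat.mul_le_mul_right _ (hb (t + 1))
  rw [add_mul, one_mul] at h1
  have := hg (t + j + 1)
  omega

variable {R : Type u} [Group R]

theorem eq_of_eq_sum {ι : Type*} (s : Finset ι) {f : ι → R → ℂ} [Finite R]
    (hf : ∀ i ∈ s, IsCharacter R (f i)) {g : R}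
    (h : ∑ i ∈ s, f i g = ∑ i ∈ s, f i 1) : ∀ i ∈ s, f i g = f i 1 := by
  intro i hi
  have hle : ∀ j ∈ s, (f j g).re ≤ (f j 1).re := fun j hj => by
    obtain ⟨n, hn⟩ := exists_natCast_map_one (hf j hj)
    refine (Complex.re_le_norm _).trans ((norm_apply_le (hf j hj) g).trans_eq ?_)
    simp [hn]
  have hre : ∑ j ∈ s, (f j g).re = ∑ j ∈ s, (f j 1).re := by
    simpa [Complex.re_sum] using congrArg Complex.re h
  have he := (Finset.sum_eq_sum_iff_of_le hle).1 hre i hi
  obtain ⟨n, hn⟩ := exists_natCast_map_one (hf i hi)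
  have hnorm : ‖f i g‖ ≤ (f i g).re := by
    rw [he]
    refine (norm_apply_le (hf i hi) g).trans_eq ?_
    simp [hn]
  have him : (f i g).im = 0 := by
    have h2 : ‖f i g‖ = (f i g).re := le_antisymm hnorm (Complex.re_le_norm _)
    have h3 := Complex.normSq_eq_norm_sq (f i g)
    rw [h2, Complex.normSq_apply] at h3
    exact mul_self_eq_zero.1 (by nlinarith)
  exact Complex.ext he (by rw [him, hn, Complex.natCast_im])

theorem eq_of_eq_add [Finite R] {a b : R → ℂ} (ha : IsCharacter R a) (hb : IsCharacter R b) {g : R}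
    (h : a g + b g = a 1 + b 1) : a g = a 1 ∧ b g = b 1 := by
  have := eq_of_eq_sum (Finset.univ : Finset Bool) (f := fun i => if i then a else b)
    (fun i _ => by cases i <;> simpa) (g := g) (by simpa using h)
  exact ⟨by simpa using this true (Finset.mem_univ _), by simpa using this false (Finset.mem_univ _)⟩

section bound

variable [Fintype R]

theorem index_charKer_le {p : ℕ} (hp : p.Prime) (hR : IsPGroup p R) (η : IrrCharacter R) :
    ∃ d : ℕ, d ≤ Module.finrank ℚ (PGroupFieldBound.valField (η : R → ℂ)) ∧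
      (charKer (η : R → ℂ)).index ≤ p ^ minkowskiSum p (d * charDegree (η : R → ℂ)) := by
  haveI := Fact.mk hp
  haveI hKn : (charKer (η : R → ℂ)).Normal := charKer_normal (isClassFunction_coe η)
  obtain ⟨a, ha⟩ : ∃ a, (charKer (η : R → ℂ)).index = p ^ a :=
    (IsPGroup.iff_card.1 (hR.to_quotient (charKer (η : R → ℂ)))).imp fun _ h =>
      (Subgroup.index_eq_card _).trans h
  rcases Nat.eq_zero_or_pos a with rfl | ha0
  · exact ⟨0, Nat.zero_le _, by rw [ha, pow_zero]; exact Nat.one_le_pow _ _ hp.pos⟩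
  set k := charKer (η : R → ℂ) with hk
  obtain ⟨N, hN⟩ := IsPGroup.iff_card.1 hR
  -- a primitive `p`-th root of unity among the values
  obtain ⟨ψ, hψ⟩ := exists_inflate_eq k η le_rfl
  haveI : Nontrivial (R ⧸ k) := by
    rw [← Finite.one_lt_card_iff_nontrivial, ← Subgroup.index_eq_card, ha]
    exact Nat.one_lt_pow ha0.ne' hp.one_lt
  have hq := hR.to_quotient k
  haveI := hq.center_nontrivial
  obtain ⟨z, hz⟩ : ∃ z : Subgroup.center (R ⧸ k), orderOf z = p := by
    refine exists_prime_orderOf_dvd_card' p ?_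
    obtain ⟨b, hb⟩ := IsPGroup.iff_card.1 (hq.to_subgroup (Subgroup.center (R ⧸ k)))
    rcases Nat.eq_zero_or_pos b with rfl | hb0
    · rw [pow_zero] at hb
      exact absurd hb (Finite.one_lt_card (α := Subgroup.center (R ⧸ k))).ne'
    · rw [hb]; exact dvd_pow_self p hb0.ne'
  obtain ⟨c, hc⟩ := exists_scalar_of_mem_center ψ z.2
  have hz1 : ((z : R ⧸ k) : R ⧸ k) ^ p = 1 := by
    rw [← Subgroup.coe_pow, ← hz, pow_orderOf_eq_one, Subgroup.coe_one]
  have hcp : c ^ p = 1 := by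
    have : ∀ i : ℕ, (ψ : R ⧸ k → ℂ) ((z : R ⧸ k) ^ i) = c ^ i * (ψ : R ⧸ k → ℂ) 1 := by
      intro i
      induction i with
      | zero => simp
      | succ i ih => rw [pow_succ', hc, ih, pow_succ', mul_assoc]
    have h := this p
    rw [hz1] at h
    exact mul_right_cancel₀ (map_one_ne_zero ψ) (by rw [← h, one_mul])
  obtain ⟨w, hw⟩ := QuotientGroup.mk'_surjective k (z : R ⧸ k)
  have hval : ∀ x : R, (η : R → ℂ) x = (ψ : R ⧸ k → ℂ) (QuotientGroup.mk' k x) := fun x => by
    rw [← hψ, inflate_apply]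
    rfl
  have hcw : (η : R → ℂ) w = c * (η : R → ℂ) 1 := by
    rw [hval, hval, hw, map_one]
    simpa using hc 1
  have hc1 : c ≠ 1 := by
    intro h
    rw [h, one_mul] at hcw
    have hwk : w ∈ k := (mem_charKer_iff (isCharacter_coe η)).2 hcw
    rw [QuotientGroup.mk'_apply, (QuotientGroup.eq_one_iff w).2 hwk] at hw
    rw [show z = 1 from Subtype.ext hw.symm, orderOf_one] at hz
    exact hp.one_lt.ne hz
  have hcprim : IsPrimitiveRoot c p := by
    have : orderOf c = p := orderOf_eq_prime hcp hc1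
    rw [← this]
    exact IsPrimitiveRoot.orderOf c
  have hcF : c ∈ PGroupFieldBound.valField (η : R → ℂ) := by
    have : c = (η : R → ℂ) w / (η : R → ℂ) 1 := by
      rw [hcw, mul_div_assoc, div_self (map_one_ne_zero η), mul_one]
    rw [this]
    exact div_mem (IntermediateField.subset_adjoin ℚ _ ⟨w, rfl⟩)
      (IntermediateField.subset_adjoin ℚ _ ⟨1, rfl⟩)
  haveI := PGroupFieldBound.finiteDimensional_valField (isCharacter_coe η)
  have hdvd := IntermediateField.finrank_dvd_of_le_right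
    (IntermediateField.adjoin_simple_le_iff.2 hcF)
  rw [PGroupFieldBound.finrank_cyclotomic hp.pos hcprim, Nat.totient_prime hp] at hdvd
  -- the cyclotomic field containing them
  have hN1 : 1 ≤ N := by
    by_contra h0
    have h1 := k.index_dvd_card
    rw [hN, ha, show N = 0 by omega, pow_zero, Nat.dvd_one] at h1
    exact (Nat.one_lt_pow ha0.ne' hp.one_lt).ne' h1
  set ζ : ℂ := Complex.exp (2 * Real.pi * Complex.I / (p ^ N : ℕ))
  have hζ : IsPrimitiveRoot ζ (p ^ N) := Complex.isPrimitiveRoot_exp _ (pow_ne_zero N hp.ne_zero)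
  haveI : FiniteDimensional ℚ (IntermediateField.adjoin ℚ ({ζ} : Set ℂ)) :=
    IntermediateField.adjoin.finiteDimensional ((hζ.isIntegral (pow_pos hp.pos N)).tower_top)
  have hdvd2 := IntermediateField.finrank_dvd_of_le_right
    (PGroupFieldBound.mem_cyclotomic (pow_pos hp.pos N) hζ
      (fun x => by rw [← hN, pow_card_eq_one']) (isCharacter_coe η))
  rw [PGroupFieldBound.finrank_cyclotomic (pow_pos hp.pos N) hζ,
    Nat.totient_prime_pow hp hN1] at hdvd2
  obtain ⟨e, he⟩ := hdvd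
  rw [he, mul_comm (p ^ (N - 1))] at hdvd2
  obtain ⟨t, -, ht⟩ := (Nat.dvd_prime_pow hp).1
    (Nat.dvd_of_mul_dvd_mul_left (Nat.sub_pos_of_lt hp.one_lt) hdvd2)
  rw [ht] at he
  obtain ⟨j, -, hj⟩ := (Nat.dvd_prime_pow hp).1 (hN ▸ charDegree_dvd_card η)
  have hb := PGroupFieldBound.bound p hp (Nat.card R) R rfl hR η (charDegree (η : R → ℂ)) a t
    (coe_charDegree η).symm ha he
  rw [hj] at hb
  refine ⟨_, le_rfl, ?_⟩
  rw [ha, he, hj]
  exact Nat.pow_le_pow_right hp.pos (index_le_of_step hp.two_le hb)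

theorem index_iInf_le_of_stable {p : ℕ} (hp : p.Prime) (hR : IsPGroup p R)
    (s : Finset (IrrCharacter R))
    (hs : ∀ (σ : ℂ ≃+* ℂ) (η ξ : IrrCharacter R),
      (ξ : R → ℂ) = (fun x => σ ((η : R → ℂ) x)) → η ∈ s → ξ ∈ s) :
    (⨅ η ∈ s, charKer (η : R → ℂ)).index ≤
      p ^ minkowskiSum p (∑ η ∈ s, charDegree (η : R → ℂ)) := by
  classical
  induction s using Finset.strongInduction with
  | _ s ih =>
  rcases Finset.eq_empty_or_nonempty s with rfl | ⟨η, hη⟩
  · simp [Nat.one_le_pow _ _ hp.pos]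
  set O := s.filter fun ξ : IrrCharacter R =>
    ∃ σ : ℂ ≃+* ℂ, (ξ : R → ℂ) = fun x => σ ((η : R → ℂ) x) with hO
  have hηO : η ∈ O := Finset.mem_filter.2 ⟨hη, RingEquiv.refl ℂ, rfl⟩
  have hOs : O ⊆ s := Finset.filter_subset _ _
  have hrest := ih (s \ O) (Finset.sdiff_ssubset hOs ⟨η, hηO⟩) (fun σ a b hab ha => by
    rw [Finset.mem_sdiff] at ha ⊢
    refine ⟨hs σ a b hab ha.1, fun hb => ha.2 (Finset.mem_filter.2 ⟨ha.1, ?_⟩)⟩
    obtain ⟨τ, hτ⟩ := (Finset.mem_filter.1 hb).2
    refine ⟨τ.trans σ.symm, funext fun x => ?_⟩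
    have h1 := (congrFun hab x).symm.trans (congrFun hτ x)
    show _ = σ.symm (τ _)
    rw [← h1, RingEquiv.symm_apply_apply])
  -- the orbit
  have hkerO : ∀ ξ ∈ O, charKer (ξ : R → ℂ) = charKer (η : R → ℂ) := by
    intro ξ hξ
    obtain ⟨σ, hσ⟩ := (Finset.mem_filter.1 hξ).2
    ext x
    simp only [mem_charKer, hσ, σ.injective.eq_iff]
  have hdegO : ∀ ξ ∈ O, charDegree (ξ : R → ℂ) = charDegree (η : R → ℂ) := by
    intro ξ hξ
    obtain ⟨σ, hσ⟩ := (Finset.mem_filter.1 hξ).2
    refine charDegree_eq_of_map_one ?_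
    rw [congrFun hσ 1, ← coe_charDegree η, map_natCast]
  obtain ⟨d, hd, hidx⟩ := index_charKer_le hp hR η
  haveI := PGroupFieldBound.finiteDimensional_valField (isCharacter_coe η)
  have hcard : d ≤ O.card := by
    refine hd.trans ?_
    rw [← AlgHom.card ℚ (PGroupFieldBound.valField (η : R → ℂ)) ℂ, ← Finset.card_univ]
    choose σ hσ using PGroupFieldBound.exists_extend (isCharacter_coe η)
    refine Finset.card_le_card_of_injOn
      (fun τ => ⟨fun x => σ τ ((η : R → ℂ) x), isIrrCharacter_ringHom η.2 (σ τ).toRingHom⟩)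
      (fun τ _ => Finset.mem_coe.2 (Finset.mem_filter.2 ⟨hs (σ τ) η _ rfl hη, σ τ, rfl⟩)) ?_
    intro τ _ τ' _ h
    refine AlgHom.ext fun x => ?_
    rw [← hσ τ, ← hσ τ']
    exact PGroupFieldBound.ringHom_eq_of_eq_values (σ τ).toRingHom (σ τ').toRingHom
      (fun g => congrFun (congrArg Subtype.val h) g) x x.2
  have hle : (⨅ ξ ∈ O, charKer (ξ : R → ℂ)).index ≤ p ^ minkowskiSum p (∑ ξ ∈ O, charDegree (ξ : R → ℂ)) := by
    have heq : (⨅ ξ ∈ O, charKer (ξ : R → ℂ)) = charKer (η : R → ℂ) :=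
      le_antisymm (iInf₂_le η hηO) (le_iInf₂ fun ξ hξ => (hkerO ξ hξ).ge)
    rw [heq, Finset.sum_congr rfl hdegO, Finset.sum_const, smul_eq_mul]
    exact hidx.trans (Nat.pow_le_pow_right hp.pos
      (minkowskiSum_mono p (Nat.mul_le_mul_right _ hcard)))
  rw [← Finset.union_sdiff_of_subset hOs, Finset.iInf_union,
    Finset.sum_union Finset.disjoint_sdiff]
  refine Subgroup.index_inf_le.trans ((Nat.mul_le_mul hle hrest).trans ?_)
  rw [← pow_add]
  exact Nat.pow_le_pow_right hp.pos (minkowskiSum_add_le p _ _)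

/-- Schur's bound: a `p`-group with a rational-valued character of degree at most `n`. -/
theorem index_charKer_le_of_rational {p : ℕ} (hp : p.Prime) (hR : IsPGroup p R) {Φ : R → ℂ}
    (hΦ : IsCharacter R Φ) (hrat : ∀ (σ : ℂ ≃+* ℂ) (x : R), σ (Φ x) = Φ x)
    {n : ℕ} (hn : charDegree Φ ≤ n) :
    (charKer Φ).index ≤ p ^ minkowskiSum p n := by
  classical
  obtain ⟨s, hmem, hsum⟩ := exists_eq_sum_mult hΦ
  have hstable : ∀ (σ : ℂ ≃+* ℂ) (η ξ : IrrCharacter R),
      (ξ : R → ℂ) = (fun x => σ ((η : R → ℂ) x)) → η ∈ s → ξ ∈ s := by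
    intro σ η ξ hξ hη
    rw [hmem, mult_ne_zero_iff hΦ] at hη ⊢
    have h : classInner Φ (ξ : R → ℂ) = σ (classInner Φ (η : R → ℂ)) := by
      rw [classInner_eq_sum_map_inv _ (isCharacter_coe η),
        classInner_eq_sum_map_inv _ (isCharacter_coe ξ)]
      simp only [map_mul, map_inv₀, map_natCast, map_sum, hrat, hξ]
    rw [h]
    exact fun h0 => hη ((map_eq_zero σ).1 h0)
  have hker : (⨅ η ∈ s, charKer (η : R → ℂ)) ≤ charKer Φ := by
    intro x hx
    simp only [Subgroup.mem_iInf] at hx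
    rw [mem_charKer_iff hΦ, hsum]
    simp only [Finset.sum_apply, Pi.smul_apply]
    exact Finset.sum_congr rfl fun η hη => by rw [map_eq_map_one_of_mem_charKer (hx η hη)]
  have hdeg : ∑ η ∈ s, charDegree (η : R → ℂ) ≤ n := by
    refine le_trans ?_ hn
    have h1 : (charDegree Φ : ℂ) = ((∑ η ∈ s, mult Φ η * charDegree (η : R → ℂ) : ℕ) : ℂ) := by
      rw [charDegree_cast hΦ]
      conv_lhs => rw [hsum]
      push_cast
      simp [Finset.sum_apply, coe_charDegree]
    rw [Nat.cast_inj.1 h1]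
    exact Finset.sum_le_sum fun η hη =>
      Nat.le_mul_of_pos_left _ (Nat.pos_of_ne_zero ((hmem η).1 hη))
  refine (Nat.le_of_dvd (Nat.pos_of_ne_zero Subgroup.index_ne_zero_of_finite)
    (Subgroup.index_dvd_of_le hker)).trans
    ((index_iInf_le_of_stable hp hR s hstable).trans ?_)
  exact Nat.pow_le_pow_right hp.pos (minkowskiSum_mono p hdeg)

end bound

end CfsgLib.DixonBound
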